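import Cfsg.Agent.Screen.CosetEnum.Fi23Mult.BRE.Data

/-!
# Checking the table
-/

set_option autoImplicit false
set_option maxRecDepth 20000

namespace Cfsg.Agent.Screen.CosetEnum.Fi23Mult.BRE

open Cfsg.Agent.Screen.CosetEnum

set_option Elab.async false

theorem rcheck0 : tbl.rows 150 0 = true := by decide +kernel

theorem rcheck1 : tbl.rows 90 150 = true := by decide +kernel

end Cfsg.Agent.Screen.CosetEnum.Fi23Mult.BRE
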